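import Cfsg.Agent.Class.HermSL2
import Cfsg.Agent.Class.OrthMat
import Cfsg.Agent.Class.OrthExt
import Cfsg.Agent.Class.StdForms

/-!
# Siegel transvection groups of singular lines form a set of root subgroups
-/

set_option autoImplicit false

namespace Cfsg.Lib.Mit.Sg

open Cfsg.Lib.Class Cfsg.Lib.Class.Orth QuadraticMap Module
open scoped MatrixGroups commutatorElement

section Generic

variable {X : Type*} [Group X] {K : Type*} [Field K]

theorem kRoot_of_tri (S : Set (Subgroup X))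
    (h1 : ∀ A ∈ S, IsMulCommutative A) (h2 : ∀ A ∈ S, A ≠ ⊥)
    (h3 : ∀ A ∈ S, ∀ g, conjBy A g ∈ S)
    (h4 : ∀ A ∈ S, ∀ B ∈ S, ⁅A, B⁆ = ⊥ ∨ SL2Pair K A B ∨ RootCommutatorCase S A B) :
    IsKRootSubgroupSet K ((fun A : Subgroup X => A.subgroupOf (⨆ B ∈ S, B)) '' S) := by
  set H := ⨆ B ∈ S, B
  have hS : ∀ A ∈ S, A ≤ H := fun A hA => le_iSup₂_of_le (f := fun B (_ : B ∈ S) => B) A hA le_rfl
  have hset := isRootSubgroupSet_subgroupOf (S := S) (H := H) rfl h1 h2 (fun A hA g _ => h3 A hA g)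
    fun A hA B hB => (h4 A hA B hB).imp_right fun h => h.imp_left fun h => h.isRankOnePair
  refine ⟨hset, ?_⟩
  rintro _ ⟨A, hA, rfl⟩ _ ⟨B, hB, rfl⟩ h
  rw [isRankOnePair_subgroupOf_iff (hS A hA) (hS B hB)] at h
  rcases h4 A hA B hB with h' | h' | h'
  · exact absurd h (not_isRankOnePair_of_commutator_eq_bot (h2 A hA) h')
  · exact isPSL2PairOver_subgroupOf (hS A hA) (hS B hB) h'.isPSL2PairOver
  · exact absurd h (not_isRankOnePair_of_central (h2 A hA) (h1 B hB) h'.2.1)

theorem commutator_eq_of_param {A B C : Subgroup X} {tA tB tC : K → X} {β : K} (hβ : β ≠ 0)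
    (hA : ∀ g, g ∈ A ↔ ∃ a, g = tA a) (hB : ∀ g, g ∈ B ↔ ∃ a, g = tB a)
    (hC : ∀ g, g ∈ C ↔ ∃ a, g = tC a) (h : ∀ a b, ⁅tA a, tB b⁆ = tC (a * b * β)) :
    ⁅A, B⁆ = C := by
  refine le_antisymm (Subgroup.commutator_le.2 fun g hg g' hg' => ?_) fun g hg => ?_
  · obtain ⟨a, rfl⟩ := (hA g).1 hg
    obtain ⟨b, rfl⟩ := (hB g').1 hg'
    exact (hC _).2 ⟨_, h a b⟩
  · obtain ⟨c, rfl⟩ := (hC g).1 hg
    have := h (c / β) 1
    rw [mul_one, div_mul_cancel₀ _ hβ] at this
    rw [← this]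
    exact Subgroup.commutator_mem_commutator ((hA _).2 ⟨_, rfl⟩) ((hB _).2 ⟨_, rfl⟩)

theorem rcc_of_param {S : Set (Subgroup X)} {A B C : Subgroup X} {tA tB tC : K → X} {β : K}
    (hβ : β ≠ 0) (hA : ∀ g, g ∈ A ↔ ∃ a, g = tA a) (hB : ∀ g, g ∈ B ↔ ∃ a, g = tB a)
    (hC : ∀ g, g ∈ C ↔ ∃ a, g = tC a) (h : ∀ a b, ⁅tA a, tB b⁆ = tC (a * b * β))
    (hA0 : tA 0 = 1) (hB0 : tB 0 = 1) (hS : C ∈ S) (hAC : ⁅A, C⁆ = ⊥) (hBC : ⁅B, C⁆ = ⊥) :
    RootCommutatorCase S A B := by
  rw [RootCommutatorCase, commutator_eq_of_param hβ hA hB hC h]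
  refine ⟨hS, fun c hc x hx => ?_, fun g hg hg1 => ?_, fun g hg hg1 => ?_⟩
  · have : A ⊔ B ≤ Subgroup.centralizer (C : Set X) :=
      sup_le (Subgroup.commutator_eq_bot_iff_le_centralizer.1 hAC)
        (Subgroup.commutator_eq_bot_iff_le_centralizer.1 hBC)
    exact this hx c hc
  · obtain ⟨a, rfl⟩ := (hA g).1 hg
    have ha : a ≠ 0 := by rintro rfl; exact hg1 hA0
    rw [← Subgroup.closure_eq C]
    congr 1
    ext x
    constructor
    · rintro ⟨y, hy, rfl⟩
      obtain ⟨b, rfl⟩ := (hB y).1 hy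
      exact (hC _).2 ⟨_, h a b⟩
    · intro hx
      obtain ⟨c, rfl⟩ := (hC x).1 hx
      refine ⟨tB (c / (a * β)), (hB _).2 ⟨_, rfl⟩, ?_⟩
      have := h a (c / (a * β))
      rw [show a * (c / (a * β)) * β = c by field_simp] at this
      exact this
  · obtain ⟨b, rfl⟩ := (hB g).1 hg
    have hb : b ≠ 0 := by rintro rfl; exact hg1 hB0
    rw [← Subgroup.closure_eq C]
    congr 1
    ext x
    constructor
    · rintro ⟨y, hy, rfl⟩
      obtain ⟨a, rfl⟩ := (hA y).1 hy
      exact (hC _).2 ⟨_, h a b⟩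
    · intro hx
      obtain ⟨c, rfl⟩ := (hC x).1 hx
      refine ⟨tA (c / (b * β)), (hA _).2 ⟨_, rfl⟩, ?_⟩
      have := h (c / (b * β)) b
      rw [show c / (b * β) * b * β = c by field_simp] at this
      exact this

end Generic

variable {F V : Type*} [Field F] [AddCommGroup V] [Module F V] {Q : QuadraticForm F V}

/-- a basis of a singular line -/
structure Ln (Q : QuadraticForm F V) (p r : V) : Prop where
  li : LinearIndependent F ![p, r]
  hp : Q p = 0
  hr : Q r = 0
  hpr : polar Q p r = 0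

/-- the isometries fixing the perp of the line -/
def T (Q : QuadraticForm F V) (p r : V) : Subgroup (O Q) where
  carrier := {g | ∀ v, polar Q v p = 0 → polar Q v r = 0 → g.1 v = v}
  mul_mem' := fun {a b} ha hb v h1 h2 => by rw [O_mul_apply, hb v h1 h2, ha v h1 h2]
  one_mem' := fun _ _ _ => rfl
  inv_mem' := fun {a} ha v h1 h2 => O_inv_apply_of_eq (ha v h1 h2)

theorem mem_T_def {p r : V} {g : O Q} :
    g ∈ T Q p r ↔ ∀ v, polar Q v p = 0 → polar Q v r = 0 → g.1 v = v := Iff.rfl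

theorem Ln.symm {p r : V} (h : Ln Q p r) : Ln Q r p :=
  ⟨LinearIndependent.pair_symm_iff.1 h.li, h.hr, h.hp, by rw [polar_comm]; exact h.hpr⟩

theorem T_swap (p r : V) : T Q p r = T Q r p := by
  ext g; exact ⟨fun h v a b => h v b a, fun h v a b => h v b a⟩

theorem Ln.p_ne {p r : V} (h : Ln Q p r) : p ≠ 0 := h.li.ne_zero 0
theorem Ln.r_ne {p r : V} (h : Ln Q p r) : r ≠ 0 := h.li.ne_zero 1

theorem Ln.comb {p r : V} (h : Ln Q p r) {a : F} (ha : a ≠ 0) (b : F) :
    Ln Q p (a • r + b • p) := by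
  refine ⟨LinearIndependent.pair_iff.2 fun s t e => ?_, h.hp, ?_, ?_⟩
  · have := LinearIndependent.pair_iff.1 h.li (s + t * b) (t * a) (by rw [← e]; module)
    have ht : t = 0 := (mul_eq_zero.1 this.2).resolve_right ha
    subst ht
    exact ⟨by simpa using this.1, rfl⟩
  · qsimp; rw [h.hp, h.hr, polar_comm Q r p, h.hpr]; ring
  · qsimp; rw [h.hp, h.hpr]; ring

theorem T_comb (p r : V) {a : F} (ha : a ≠ 0) (b : F) : T Q p (a • r + b • p) = T Q p r := by
  ext g
  refine forall_congr' fun v => imp_congr_right fun hv => imp_congr_left ?_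
  qsimp
  rw [hv, mul_zero, add_zero, mul_eq_zero, or_iff_right ha]

theorem Ln.map {p r : V} (h : Ln Q p r) (g : O Q) : Ln Q (g.1 p) (g.1 r) := by
  refine ⟨LinearIndependent.pair_iff.2 fun s t e => LinearIndependent.pair_iff.1 h.li s t
    (g.1.injective (by rw [map_add, map_smul, map_smul, e, map_zero])), ?_, ?_, ?_⟩
  · rw [O_map, h.hp]
  · rw [O_map, h.hr]
  · rw [O_polar, h.hpr]

theorem conjBy_T (p r : V) (g : O Q) : conjBy (T Q p r) g = T Q (g.1 p) (g.1 r) := by
  ext x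
  rw [mem_conjBy, mem_T_def, mem_T_def]
  constructor
  · intro h v h1 h2
    have := h ((g⁻¹).1 v) (by rw [← O_polar_right, h1]) (by rw [← O_polar_right, h2])
    rw [O_mul_apply, O_mul_apply, O_apply_inv] at this
    exact (g⁻¹).1.injective this
  · intro h v h1 h2
    rw [O_mul_apply, O_mul_apply, h _ (by rw [O_polar, h1]) (by rw [O_polar, h2]), O_inv_apply]

/-- the Siegel transvection -/
noncomputable def sg (Q : QuadraticForm F V) (p r : V) (c : F) : O Q := eich Q p (c • r)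

theorem sg_apply {p r : V} (hp : Q p = 0) (hr : Q r = 0) (hpr : polar Q p r = 0) (c : F) (x : V) :
    (sg Q p r c).1 x = x + (c * polar Q x r) • p - (c * polar Q x p) • r := by
  rw [sg, eich_apply hp (by qsimp; rw [hpr, mul_zero])]
  qsimp
  rw [hr]
  module

theorem Ln.app {p r : V} (h : Ln Q p r) (c : F) (x : V) :
    (sg Q p r c).1 x = x + (c * polar Q x r) • p - (c * polar Q x p) • r :=
  sg_apply h.hp h.hr h.hpr c x

theorem sg_zero (p r : V) : sg Q p r 0 = 1 := by rw [sg, zero_smul, eich_zero]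

theorem li_of_dual {ι : Type*} [DecidableEq ι] {v w : ι → V}
    (h : ∀ i j, polar Q (v i) (w j) = if i = j then 1 else 0) : LinearIndependent F v := by
  rw [linearIndependent_iff']
  intro s g e j hj
  have := congrArg (fun x => (polarBilin Q) x (w j)) e
  simp only [map_sum, map_smul, LinearMap.sum_apply, LinearMap.smul_apply, polarBilin_apply_apply,
    h, smul_eq_mul, map_zero, LinearMap.zero_apply, mul_ite, mul_one, mul_zero] at this
  rwa [Finset.sum_ite_eq' s j, if_pos hj] at this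

variable [FiniteDimensional F V]

theorem Ln.exists_dual (hQ : (polarBilin Q).Nondegenerate) {p r : V} (h : Ln Q p r) (a b : F) :
    ∃ u, polar Q p u = a ∧ polar Q r u = b := by
  obtain ⟨u, hu⟩ := exists_polar_eq_of_linearIndependent hQ h.li ![a, b]
  exact ⟨u, hu 0, hu 1⟩

theorem Ln.mem_T (hQ : (polarBilin Q).Nondegenerate) {p r : V} (h : Ln Q p r) (g : O Q) :
    g ∈ T Q p r ↔ ∃ c, g = sg Q p r c := by
  constructor
  · intro hg
    have key : ∀ x, ∃ a b : F, g.1 x = x + a • p + b • r := fun x => by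
      by_cases hx : g.1 x - x ∈ Submodule.span F {p, r}
      · obtain ⟨a, b, e⟩ := Submodule.mem_span_pair.1 hx
        exact ⟨a, b, by rw [add_assoc, e]; abel⟩
      · obtain ⟨w, hw, hw1⟩ := exists_polar_sep hQ hx
        have := hg w (by rw [polar_comm]; exact hw p (Submodule.subset_span (by simp)))
          (by rw [polar_comm]; exact hw r (Submodule.subset_span (by simp)))
        rw [polar_sub_left, ← this, O_polar, this, sub_self] at hw1
        exact absurd hw1 zero_ne_one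
    obtain ⟨u, hu1, hu2⟩ := h.exists_dual hQ 1 0
    obtain ⟨v, hv1, hv2⟩ := h.exists_dual hQ 0 1
    obtain ⟨a, b, e1⟩ := key u
    obtain ⟨c, d, e2⟩ := key v
    have q1 := O_map g u
    have q2 := O_map g v
    have q3 := O_polar g u v
    rw [e1] at q1
    rw [e2] at q2
    rw [e1, e2] at q3
    revert q1 q2 q3
    qsimp
    simp only [h.hp, h.hr, h.hpr, polar_comm Q u p, polar_comm Q u r, polar_comm Q v p,
      polar_comm Q v r, polar_comm Q r p, hu1, hu2, hv1, hv2]
    intro q1 q2 q3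
    have ha : a = 0 := by linear_combination q1
    have hd : d = 0 := by linear_combination q2
    have hb : b = -c := by linear_combination q3
    refine ⟨c, O_ext fun x => ?_⟩
    have hw := hg (x - polar Q x p • u - polar Q x r • v)
      (by qsimp; rw [polar_comm Q u p, polar_comm Q v p, hu1, hv1]; ring)
      (by qsimp; rw [polar_comm Q u r, polar_comm Q v r, hu2, hv2]; ring)
    rw [map_sub, map_sub, map_smul, map_smul, e1, e2, ha, hd, hb] at hw
    rw [h.app]
    linear_combination (norm := module) hw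
  · rintro ⟨c, rfl⟩ v h1 h2
    rw [h.app, h1, h2]; module

theorem Ln.T_ne_bot (hQ : (polarBilin Q).Nondegenerate) {p r : V} (h : Ln Q p r) :
    T Q p r ≠ ⊥ := by
  intro e
  have h1 : sg Q p r 1 ∈ T Q p r := (h.mem_T hQ _).2 ⟨1, rfl⟩
  rw [e, Subgroup.mem_bot] at h1
  obtain ⟨v, hv1, hv2⟩ := h.exists_dual hQ 0 1
  have := h.app 1 v
  rw [h1, O_one_apply, polar_comm Q v r, polar_comm Q v p, hv1, hv2] at this
  exact h.p_ne (by linear_combination (norm := module) -this)

theorem commutator_T_bot (hQ : (polarBilin Q).Nondegenerate) {p r s u : V} (h : Ln Q p r)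
    (k : Ln Q s u) (h1 : polar Q p s = 0) (h2 : polar Q p u = 0) (h3 : polar Q r s = 0)
    (h4 : polar Q r u = 0) : ⁅T Q p r, T Q s u⁆ = ⊥ := by
  rw [eq_bot_iff, Subgroup.commutator_le]
  intro g hg g' hg'
  obtain ⟨a, rfl⟩ := (h.mem_T hQ g).1 hg
  obtain ⟨b, rfl⟩ := (k.mem_T hQ g').1 hg'
  rw [Subgroup.mem_bot, commutatorElement_eq_one_iff_mul_comm]
  refine O_ext fun x => ?_
  simp only [O_mul_apply, h.app, k.app]
  qsimp
  simp only [polar_comm Q s p, polar_comm Q s r, polar_comm Q u p, polar_comm Q u r, h1, h2, h3, h4]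
  module

theorem Ln.comm (hQ : (polarBilin Q).Nondegenerate) {p r : V} (h : Ln Q p r) :
    IsMulCommutative (T Q p r) := by
  have := commutator_T_bot hQ h h (by rw [polar_self', h.hp, mul_zero]) h.hpr h.symm.hpr
    (by rw [polar_self', h.hr, mul_zero])
  exact ⟨⟨fun a b => Subtype.ext
    ((Subgroup.commutator_eq_bot_iff_le_centralizer.1 this b.2 a a.2))⟩⟩

omit [FiniteDimensional F V] in
theorem sg_commutator {p r s u : V} (h : Ln Q p r) (k : Ln Q s u) (h2 : polar Q p u = 0)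
    (h3 : polar Q r s = 0) (h4 : polar Q r u = 0) (a b : F) :
    ⁅sg Q p r a, sg Q s u b⁆ = sg Q u r (a * b * polar Q p s) := by
  rw [commutatorElement_def, mul_inv_eq_iff_eq_mul, mul_inv_eq_iff_eq_mul]
  refine O_ext fun x => ?_
  have h4' : polar Q u r = 0 := by rw [polar_comm, h4]
  simp only [O_mul_apply, h.app, k.app, sg_apply k.hr h.hr h4']
  qsimp
  simp only [polar_comm Q s p, polar_comm Q s r, polar_comm Q u p, polar_comm Q u r, h2, h3, h4,
    h.hp, h.hr, k.hp, k.hr, h.hpr, k.hpr, h.symm.hpr, k.symm.hpr]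
  module

/-- the set of all Siegel transvection groups -/
def SS (Q : QuadraticForm F V) : Set (Subgroup (O Q)) := {A | ∃ p r, Ln Q p r ∧ A = T Q p r}

theorem rank_one (hQ : (polarBilin Q).Nondegenerate) {p r s u : V} (h : Ln Q p r) (k : Ln Q s u)
    (h1 : polar Q p s ≠ 0) (h2 : polar Q p u = 0) (h3 : polar Q r s = 0) (h4 : polar Q r u = 0) :
    ⁅T Q p r, T Q s u⁆ = ⊥ ∨ RootCommutatorCase (SS Q) (T Q p r) (T Q s u) := by
  have h4' : polar Q u r = 0 := by rw [polar_comm, h4]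
  by_cases hli : LinearIndependent F ![u, r]
  · have l : Ln Q u r := ⟨hli, k.hr, h.hr, h4'⟩
    exact Or.inr (rcc_of_param h1 (h.mem_T hQ) (k.mem_T hQ) (l.mem_T hQ)
      (sg_commutator h k h2 h3 h4) (sg_zero _ _) (sg_zero _ _) ⟨u, r, l, rfl⟩
      (commutator_T_bot hQ h l h2 h.hpr h4 (by rw [polar_self', h.hr, mul_zero]))
      (commutator_T_bot hQ k l k.hpr (by rw [polar_comm, h3])
        (by rw [polar_self', k.hr, mul_zero]) h4'))
  · left
    rw [LinearIndependent.pair_iff' k.r_ne] at hli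
    push Not at hli
    obtain ⟨c, rfl⟩ := hli
    rw [eq_bot_iff, Subgroup.commutator_le]
    intro g hg g' hg'
    obtain ⟨a, rfl⟩ := (h.mem_T hQ g).1 hg
    obtain ⟨b, rfl⟩ := (k.mem_T hQ g').1 hg'
    rw [Subgroup.mem_bot, sg_commutator h k h2 h3 h4, sg, smul_smul, eich_smul_self]

/-- the nilpotent part -/
def nn (Q : QuadraticForm F V) (p r : V) : End F V :=
  (polarBilin Q r).smulRight p - (polarBilin Q p).smulRight r

omit [FiniteDimensional F V] in
theorem nn_apply (p r x : V) : nn Q p r x = polar Q x r • p - polar Q x p • r := by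
  simp [nn, polar_comm Q x]

theorem rank_two (hQ : (polarBilin Q).Nondegenerate) {p r s u : V} (h : Ln Q p r) (k : Ln Q s u)
    (hD : polar Q p s * polar Q r u - polar Q p u * polar Q r s ≠ 0) :
    SL2Pair F (T Q p r) (T Q s u) := by
  set D := polar Q p s * polar Q r u - polar Q p u * polar Q r s with hDd
  let x : End F V := nn Q p r
  let y : End F V := (-D⁻¹) • nn Q s u
  have hx : x * x = 0 := by
    ext v
    simp only [x, End.mul_apply, nn_apply, LinearMap.zero_apply]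
    qsimp
    simp only [h.hp, h.hr, h.hpr, h.symm.hpr]
    module
  have hy : y * y = 0 := by
    ext v
    simp only [y, End.mul_apply, nn_apply, LinearMap.zero_apply, LinearMap.smul_apply]
    qsimp
    simp only [k.hp, k.hr, k.hpr, k.symm.hpr]
    module
  have e1 : ∀ v, nn Q p r (nn Q s u (nn Q p r v)) = (-D) • nn Q p r v := fun v => by
    simp only [nn_apply, hDd]
    qsimp
    simp only [polar_comm Q s p, polar_comm Q s r, polar_comm Q u p, polar_comm Q u r]
    module
  have e2 : ∀ v, nn Q s u (nn Q p r (nn Q s u v)) = (-D) • nn Q s u v := fun v => by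
    simp only [nn_apply, hDd]
    qsimp
    simp only [polar_comm Q s p, polar_comm Q s r, polar_comm Q u p, polar_comm Q u r]
    module
  have h1 : x * y * x = x := by
    ext v
    simp only [x, y, End.mul_apply, LinearMap.smul_apply, map_smul, e1, smul_smul]
    rw [show -D⁻¹ * -D = 1 by field_simp, one_smul]
  have h2 : y * x * y = y := by
    ext v
    simp only [x, y, End.mul_apply, LinearMap.smul_apply, map_smul, e2, smul_smul]
    congr 1
    field_simp
  have hx0 : x ≠ 0 := by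
    intro e
    obtain ⟨v, hv1, hv2⟩ := h.exists_dual hQ 0 1
    have := LinearMap.congr_fun e v
    simp only [x, nn_apply, polar_comm Q v, hv1, hv2, LinearMap.zero_apply] at this
    exact h.p_ne (by simpa using this)
  obtain ⟨χ, hχ, hU, hV⟩ := exists_sl2_hom_smul hx hy h1 h2 hx0
  let χ' : SL(2, F) →* (V ≃ₗ[F] V) :=
    (LinearMap.GeneralLinearGroup.generalLinearEquiv F V).toMonoidHom.comp χ
  have hU' : ∀ a, χ' (slU a) = (sg Q p r a).1 := fun a => LinearEquiv.ext fun v => by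
    change (χ (slU a) : End F V) v = _
    rw [hU, h.app]
    simp only [x, LinearMap.add_apply, End.one_apply, LinearMap.smul_apply, nn_apply]
    module
  have hV' : ∀ a, χ' (slV a) = (sg Q s u (a * -D⁻¹)).1 := fun a => LinearEquiv.ext fun v => by
    change (χ (slV a) : End F V) v = _
    rw [hV, k.app]
    simp only [y, LinearMap.add_apply, End.one_apply, LinearMap.smul_apply, nn_apply]
    module
  have hmem : ∀ g, χ' g ∈ O Q := fun g => by
    have := sl2_eq_top_of_slU_slV ((O Q).comap χ')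
      (fun a => by rw [Subgroup.mem_comap, hU']; exact Subtype.property _)
      (fun a => by rw [Subgroup.mem_comap, hV']; exact Subtype.property _)
    exact (this ▸ Subgroup.mem_top g : g ∈ (O Q).comap χ')
  let ψ : SL(2, F) →* O Q := χ'.codRestrict _ hmem
  have hψU : ∀ a, ψ (slU a) = sg Q p r a := fun a => Subtype.ext (hU' a)
  have hψV : ∀ a, ψ (slV a) = sg Q s u (a * -D⁻¹) := fun a => Subtype.ext (hV' a)
  refine ⟨ψ, fun g g' hg => hχ ((LinearMap.GeneralLinearGroup.generalLinearEquiv F V).injective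
    (congrArg Subtype.val hg)), ?_, ?_⟩
  · ext g
    rw [h.mem_T hQ, Subgroup.mem_map]
    constructor
    · rintro ⟨g, hg, rfl⟩
      obtain ⟨a, rfl⟩ := mem_upperUnipotentSL2.1 hg
      exact ⟨a, hψU a⟩
    · rintro ⟨a, rfl⟩
      exact ⟨slU a, mem_upperUnipotentSL2.2 ⟨a, rfl⟩, hψU a⟩
  · ext g
    rw [k.mem_T hQ, Subgroup.mem_map]
    constructor
    · rintro ⟨g, hg, rfl⟩
      obtain ⟨a, rfl⟩ := mem_lowerUnipotentSL2.1 hg
      exact ⟨_, hψV a⟩
    · rintro ⟨a, rfl⟩
      refine ⟨slV (-a * D), mem_lowerUnipotentSL2.2 ⟨_, rfl⟩, ?_⟩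
      rw [hψV, show -a * D * -D⁻¹ = a by field_simp]

theorem tri_aux (hQ : (polarBilin Q).Nondegenerate) {p r s u : V} (h : Ln Q p r) (k : Ln Q s u)
    (h1 : polar Q p s ≠ 0) : ⁅T Q p r, T Q s u⁆ = ⊥ ∨ SL2Pair F (T Q p r) (T Q s u) ∨
      RootCommutatorCase (SS Q) (T Q p r) (T Q s u) := by
  by_cases hD : polar Q p s * polar Q r u - polar Q p u * polar Q r s = 0
  · have := rank_one hQ (h.comb h1 (-polar Q r s)) (k.comb h1 (-polar Q p u)) h1
      (by qsimp; ring) (by qsimp; ring) (by qsimp; linear_combination polar Q p s * hD)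
    rw [T_comb _ _ h1, T_comb _ _ h1] at this
    exact this.imp_right Or.inr
  · exact Or.inr (Or.inl (rank_two hQ h k hD))

theorem tri (hQ : (polarBilin Q).Nondegenerate) {p r s u : V} (h : Ln Q p r) (k : Ln Q s u) :
    ⁅T Q p r, T Q s u⁆ = ⊥ ∨ SL2Pair F (T Q p r) (T Q s u) ∨
      RootCommutatorCase (SS Q) (T Q p r) (T Q s u) := by
  by_cases h1 : polar Q p s = 0
  · by_cases h2 : polar Q p u = 0
    · by_cases h3 : polar Q r s = 0
      · by_cases h4 : polar Q r u = 0
        · exact Or.inl (commutator_T_bot hQ h k h1 h2 h3 h4)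
        · rw [T_swap p r, T_swap s u]; exact tri_aux hQ h.symm k.symm h4
      · rw [T_swap p r]; exact tri_aux hQ h.symm k h3
    · rw [T_swap s u]; exact tri_aux hQ h k.symm h2
  · exact tri_aux hQ h k h1

/-- every hyperbolic four-space has all values in its perp -/
def H3 (Q : QuadraticForm F V) : Prop :=
  ∀ p s r u : V, Q p = 0 → Q s = 0 → Q r = 0 → Q u = 0 → polar Q p s = 1 → polar Q p r = 0 →
    polar Q p u = 0 → polar Q s r = 0 → polar Q s u = 0 → polar Q r u = 1 → ∀ c : F,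
    ∃ w, polar Q p w = 0 ∧ polar Q s w = 0 ∧ polar Q r w = 0 ∧ polar Q u w = 0 ∧ Q w = c

theorem exists_common (hQ : (polarBilin Q).Nondegenerate) (H : H3 Q) {p s r r' : V}
    (hp : Q p = 0) (hs : Q s = 0) (hps : polar Q p s = 1) (hr : Q r = 0) (hr' : Q r' = 0)
    (h0 : r ≠ 0) (h0' : r' ≠ 0) (h1 : polar Q p r = 0) (h2 : polar Q s r = 0)
    (h1' : polar Q p r' = 0) (h2' : polar Q s r' = 0) :
    ∃ u, Q u = 0 ∧ polar Q p u = 0 ∧ polar Q s u = 0 ∧ polar Q r u ≠ 0 ∧ polar Q r' u ≠ 0 := by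
  by_cases hb : polar Q r r' = 0
  · have : ∃ w, polar Q p w = 0 ∧ polar Q s w = 0 ∧ polar Q r w = 1 ∧ polar Q r' w ≠ 0 := by
      obtain ⟨w, a1, a2, a3⟩ := exists_polar_eq_one_hyp hQ hp hs hps h0 h1 h2
      obtain ⟨w', b1, b2, b3⟩ := exists_polar_eq_one_hyp hQ hp hs hps h0' h1' h2'
      by_cases c1 : polar Q r' w = 0
      · by_cases c2 : polar Q r w' = 0
        · refine ⟨w + w', ?_, ?_, ?_, ?_⟩ <;> qsimp
          · rw [a1, b1, add_zero]
          · rw [a2, b2, add_zero]
          · rw [a3, c2, add_zero]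
          · rw [c1, b3, zero_add]; exact one_ne_zero
        · refine ⟨(polar Q r w')⁻¹ • w', ?_, ?_, ?_, ?_⟩ <;> qsimp
          · rw [b1, mul_zero]
          · rw [b2, mul_zero]
          · exact inv_mul_cancel₀ c2
          · rw [b3, mul_one]; exact inv_ne_zero c2
      · exact ⟨w, a1, a2, a3, c1⟩
    obtain ⟨w, a1, a2, a3, a4⟩ := this
    refine ⟨w - Q w • r, Q_partner hr a3, ?_, ?_, ?_, ?_⟩ <;> qsimp
    · rw [a1, h1]; ring
    · rw [a2, h2]; ring
    · rw [a3, hr]; simp
    · rw [polar_comm Q r' r, hb, mul_zero, sub_zero]; exact a4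
  · obtain ⟨w, a1, a2, a3, a4, a5⟩ := H p s r ((polar Q r r')⁻¹ • r') hp hs hr
      (by qsimp; rw [hr', mul_zero]) hps h1 (by qsimp; rw [h1', mul_zero]) h2
      (by qsimp; rw [h2', mul_zero]) (by qsimp; exact inv_mul_cancel₀ hb) (-polar Q r r')
    rw [polar_smul_left', mul_eq_zero, or_iff_right (inv_ne_zero hb)] at a4
    refine ⟨r + r' + w, ?_, ?_, ?_, ?_, ?_⟩ <;> qsimp
    · rw [hr, hr', a5, a3, a4]; ring
    · rw [h1, h1', a1]; ring
    · rw [h2, h2', a2]; ring
    · rw [hr, a3]; simpa using hb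
    · rw [hr', a4, polar_comm Q r' r]; simpa using hb

theorem share (hQ : (polarBilin Q).Nondegenerate) (H : H3 Q) {p r r' : V} (h : Ln Q p r)
    (h' : Ln Q p r') : ∃ s u, Ln Q s u ∧ SL2Pair F (T Q p r) (T Q s u) ∧
      SL2Pair F (T Q s u) (T Q p r') := by
  obtain ⟨s, hs, hps⟩ := exists_partner hQ h.p_ne h.hp
  have l := h.comb one_ne_zero (-polar Q s r)
  have l' := h'.comb one_ne_zero (-polar Q s r')
  have hsp : polar Q s p = 1 := by rw [polar_comm, hps]
  have m : polar Q s ((1 : F) • r + (-polar Q s r) • p) = 0 := by qsimp; rw [hsp]; ring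
  have m' : polar Q s ((1 : F) • r' + (-polar Q s r') • p) = 0 := by qsimp; rw [hsp]; ring
  obtain ⟨u, hu, a1, a2, a3, a4⟩ := exists_common hQ H h.hp hs hps l.hr l'.hr l.r_ne l'.r_ne
    l.hpr m l'.hpr m'
  have k : Ln Q s u := by
    refine ⟨LinearIndependent.pair_iff.2 fun a b e => ?_, hs, hu, a2⟩
    have e1 := congrArg (polar Q p) e
    have e2 := congrArg (polar Q ((1 : F) • r + (-polar Q s r) • p)) e
    rw [polar_add_right, polar_smul_right', polar_smul_right', polar_zero_right] at e1 e2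
    rw [hps, a1] at e1
    rw [polar_comm _ _ s, m] at e2
    exact ⟨by simpa using e1, (mul_eq_zero.1 (by simpa using e2)).resolve_right a3⟩
  refine ⟨s, u, k, ?_, ?_⟩
  · rw [← T_comb p r one_ne_zero (-polar Q s r)]
    exact rank_two hQ l k (by rw [hps, a1]; simpa using a3)
  · rw [← T_comb p r' one_ne_zero (-polar Q s r')]
    exact rank_two hQ k l' (by rw [hsp, m', polar_comm _ u]; simpa using a4)

theorem conn (hQ : (polarBilin Q).Nondegenerate) (H : H3 Q) {R : Subgroup (O Q) → Subgroup (O Q) → Prop}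
    (hR : ∀ A ∈ SS Q, ∀ B ∈ SS Q, SL2Pair F A B → R A B) :
    ∀ A ∈ SS Q, ∀ B ∈ SS Q, Relation.ReflTransGen R A B := by
  have sh : ∀ {p r r' : V}, Ln Q p r → Ln Q p r' → Relation.ReflTransGen R (T Q p r) (T Q p r') :=
    fun h h' => by
      obtain ⟨s, u, k, a, b⟩ := share hQ H h h'
      exact .tail (.single (hR _ ⟨_, _, h, rfl⟩ _ ⟨_, _, k, rfl⟩ a))
        (hR _ ⟨_, _, k, rfl⟩ _ ⟨_, _, h', rfl⟩ b)
  have stA : ∀ {p r s u : V}, Ln Q p r → Ln Q s u → polar Q p s = 0 →
      Relation.ReflTransGen R (T Q p r) (T Q s u) := fun {p r s u} h k hps => by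
    by_cases hli : LinearIndependent F ![p, s]
    · have l : Ln Q p s := ⟨hli, h.hp, k.hp, hps⟩
      have := sh h l
      rw [T_swap p s] at this
      exact this.trans (sh l.symm k)
    · rw [LinearIndependent.pair_iff' h.p_ne] at hli
      push Not at hli
      obtain ⟨c, rfl⟩ := hli
      have hc : c ≠ 0 := by rintro rfl; exact k.p_ne (zero_smul _ _)
      have e : c⁻¹ • c • p + (0 : F) • u = p := by rw [inv_smul_smul₀ hc]; module
      have l := (k.symm.comb (inv_ne_zero hc) 0).symm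
      have e' := T_comb (Q := Q) u (c • p) (inv_ne_zero hc) 0
      rw [e] at l e'
      rw [T_swap (c • p) u, ← e', T_swap u p]
      exact sh h l
  rintro _ ⟨p, r, h, rfl⟩ _ ⟨s, u, k, rfl⟩
  by_cases hps : polar Q p s = 0
  · exact stA h k hps
  · have := stA (h.comb hps (-polar Q r s)).symm k (by qsimp; ring)
    rwa [T_swap, T_comb _ _ hps] at this

theorem main {X : Type*} [Group X] (hQ : (polarBilin Q).Nondegenerate) (H : H3 Q) (e : O Q ≃* X)
    (S : Set (Subgroup X)) (hS : S = (fun A => A.map (e : O Q →* X)) '' SS Q) :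
    IsKRootSubgroupSet F ((fun A : Subgroup X => A.subgroupOf (⨆ B ∈ S, B)) '' S) ∧
      IsConnectedFamily (FAdj S) S := by
  have he : Function.Injective (e : O Q →* X) := e.injective
  subst hS
  refine ⟨kRoot_of_tri _ ?_ ?_ ?_ ?_, ?_⟩
  · rintro _ ⟨_, ⟨p, r, h, rfl⟩, rfl⟩
    have := h.comm hQ
    infer_instance
  · rintro _ ⟨_, ⟨p, r, h, rfl⟩, rfl⟩ e0
    exact h.T_ne_bot hQ ((Subgroup.map_eq_bot_iff_of_injective _ he).1 e0)
  · rintro _ ⟨_, ⟨p, r, h, rfl⟩, rfl⟩ g
    obtain ⟨g, rfl⟩ := e.surjective g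
    refine ⟨_, ⟨_, _, h.map g, rfl⟩, ?_⟩
    dsimp only
    rw [← conjBy_T, map_conjBy]; rfl
  · rintro _ ⟨_, ⟨p, r, h, rfl⟩, rfl⟩ _ ⟨_, ⟨s, u, k, rfl⟩, rfl⟩
    rcases tri hQ h k with t | t | t
    · left; dsimp only; rw [← Subgroup.map_commutator, t, Subgroup.map_bot]
    · exact Or.inr (Or.inl (t.map he))
    · exact Or.inr (Or.inr ((rootCommutatorCase_map_iff he).2 t))
  · rintro _ ⟨A, hA, rfl⟩ _ ⟨B, hB, rfl⟩
    have := conn hQ H (R := fun A B => FAdj ((fun A => A.map (e : O Q →* X)) '' SS Q)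
        (A.map (e : O Q →* X)) (B.map (e : O Q →* X)))
        (fun A hA B hB t => ⟨⟨A, hA, rfl⟩, ⟨B, hB, rfl⟩, (t.map he).isRankOnePair⟩) A hA B hB
    clear hB
    induction this with
    | refl => exact .refl
    | tail _ h ih => exact .tail ih h

theorem H3_of_frame (hQ : (polarBilin Q).Nondegenerate) (e f : Fin 3 → V) (he : ∀ i, Q (e i) = 0)
    (hf : ∀ i, Q (f i) = 0) (hee : ∀ i j, polar Q (e i) (e j) = 0)
    (hff : ∀ i j, polar Q (f i) (f j) = 0)
    (hef : ∀ i j, polar Q (e i) (f j) = if i = j then 1 else 0) : H3 Q := by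
  intro p s r u hp hs hr hu h1 h2 h3 h4 h5 h6 c
  have hfe : ∀ i j, polar Q (f i) (e j) = if j = i then 1 else 0 := fun i j => by
    rw [polar_comm, hef]
  have g1 : polar Q s p = 1 := by rw [polar_comm, h1]
  have g2 : polar Q r p = 0 := by rw [polar_comm, h2]
  have g3 : polar Q u p = 0 := by rw [polar_comm, h3]
  have g4 : polar Q r s = 0 := by rw [polar_comm, h4]
  have g5 : polar Q u s = 0 := by rw [polar_comm, h5]
  have g6 : polar Q u r = 1 := by rw [polar_comm, h6]
  have l1 : LinearIndependent F ![p, s, r, u] :=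
    li_of_dual (Q := Q) (w := ![s, p, u, r]) fun i j => by
      fin_cases i <;> fin_cases j <;> simp [*, polar_self']
  have l2 : LinearIndependent F ![e 0, f 0, e 1, f 1] :=
    li_of_dual (Q := Q) (w := ![f 0, e 0, f 1, e 1]) fun i j => by
      fin_cases i <;> fin_cases j <;> simp [hee, hff, hef, hfe]
  obtain ⟨g, hg⟩ := witt_family hQ l2 l1 (fun i => by fin_cases i <;> simp [*])
    (fun i j hij => by fin_cases i <;> fin_cases j <;> simp_all)
  have g0 : g.1 (e 0) = p := hg 0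
  have g1 : g.1 (f 0) = s := hg 1
  have g2 : g.1 (e 1) = r := hg 2
  have g3 : g.1 (f 1) = u := hg 3
  refine ⟨g.1 (e 2 + c • f 2), ?_, ?_, ?_, ?_, ?_⟩
  · rw [← g0, O_polar]; qsimp; simp [hee, hef]
  · rw [← g1, O_polar]; qsimp; simp [hff, hfe]
  · rw [← g2, O_polar]; qsimp; simp [hee, hef]
  · rw [← g3, O_polar]; qsimp; simp [hff, hfe]
  · rw [O_map]; qsimp; simp [he, hf, hef]

theorem H3_plus (m : ℕ) : H3 (quadPlus (m + 3) F) := by
  refine H3_of_frame (quadPlus_nondegenerate _)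
    (fun i => Pi.single (Sum.inl (Fin.natAdd m i)) 1)
    (fun i => Pi.single (Sum.inr (Fin.natAdd m i)) 1) ?_ ?_ ?_ ?_ ?_
  · intro i; simp [quadFormPlus, Pi.single_apply]
  · intro i; simp [quadFormPlus, Pi.single_apply]
  · intro i j; simp [coe_quadPlus, polar_quadFormPlus, Pi.single_apply]
  · intro i j; simp [coe_quadPlus, polar_quadFormPlus, Pi.single_apply]
  · intro i j; simp [coe_quadPlus, polar_quadFormPlus, Pi.single_apply, eq_comm]

end Cfsg.Lib.Mit.Sg
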